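import Cfsg.Agent.H773.Pw.Spor
import Cfsg.Agent.H547.SelfCent.Conway
import Cfsg.Agent.H393.Iso.Co1
import Cfsg.Agent.SporadicStructure.M24El
import Cfsg.Agent.CoOneType.CoOneE
import Cfsg.Agent.NotCT.Orders

/-!
# `PW 3 70` and `PW 7 70` for `Co1` (helper468)

In `M24 ≤ Co1` an element of order 23 is the product of two elements of order 3 (of order 7); it is self-centralizing.
-/

set_option autoImplicit false

namespace Cfsg.Agent.H468.PW

open Subgroup Cfsg Cfsg.Agent.H514.DP

universe u

namespace Co1P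

open Cfsg.Agent.SporadicA.GolayBase Cfsg.Agent.SporadicA.GolayPerm
open Cfsg.Agent.SporadicStructure.M24El
open Cfsg.Agent.SporadicA.Co0Mono Cfsg.Agent.SporadicA.Co1Simple
open Cfsg.Agent.CoOneType.CoOneE (pr pr_surjective pr_eq_iff)

/-- packed powers -/
def pp (P : ℕ) : ℕ → ℕ
  | 0 => idP
  | n + 1 => pcomp P (pp P n)

theorem pp_spec {P : ℕ} (hP : ok P = true) (n : ℕ) : ok (pp P n) = true ∧ el (pp P n) = el P ^ n := by
  induction n with
  | zero => exact ⟨ok_idP, by rw [pow_zero]; exact el_idP⟩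
  | succ n ih =>
    refine ⟨ok_pcomp hP ih.1, ?_⟩
    show el (pcomp P (pp P n)) = _
    rw [el_pcomp hP ih.1, ih.2, pow_succ']

theorem el_pow_eq_one {P n : ℕ} (hP : ok P = true) (h : pp P n = idP) : el P ^ n = 1 := by
  rw [← (pp_spec hP n).2, h, el_idP]

theorem el_ne_one {P : ℕ} (hP : ok P = true) (h : papp P 0 ≠ 0) : el P ≠ 1 := by
  intro h1
  have h2 := idx_el_smul hP (pt 0)
  rw [h1, one_smul] at h2
  have h3 : idx (pt 0) = 0 := by decide
  rw [h3] at h2
  exact h h2.symm

/-- `M24 → Co1` -/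
noncomputable def emb : M24 →* Spor.Co1 := pr.comp permCo0

theorem emb_eq_one {σ : M24} (h : emb σ = 1) : σ = 1 := by
  have h1 : pr (permCo0 σ) = pr 1 := by rw [map_one]; exact h
  rcases (pr_eq_iff _ _).1 h1 with h2 | h2
  · exact perm_eq_one (d := 0) (by rw [← h2, signCo0_zero, mul_one])
  · apply perm_eq_one (d := allOne)
    calc signCo0 allOne * permCo0 σ = (permCo0 σ)⁻¹ * (permCo0 σ * signCo0 allOne) * permCo0 σ := by group
      _ = 1 := by rw [← h2]; group

/-- the element of order 23 -/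
theorem key {p P Q : ℕ} (hP : ok P = true) (hQ : ok Q = true) (hPp : pp P p = idP) (hQp : pp Q p = idP)
    (h23 : pp (pcomp P Q) 23 = idP) (h0 : papp (pcomp P Q) 0 ≠ 0) :
    ∃ y : Spor.Co1, orderOf y = 23 ∧ PE p 2 y := by
  have hPQ := ok_pcomp hP hQ
  have hf : Fact (Nat.Prime 23) := ⟨by norm_num⟩
  refine ⟨emb (el (pcomp P Q)), orderOf_eq_prime ?_ ?_, ?_⟩
  · rw [← map_pow, el_pow_eq_one hPQ h23, map_one]
  · intro h
    exact el_ne_one hPQ h0 (emb_eq_one h)
  · apply PE.map
    rw [el_pcomp hP hQ]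
    have h1 : IsPE p (el P) := ⟨1, by rw [pow_one]; exact el_pow_eq_one hP hPp⟩
    have h2 : IsPE p (el Q) := ⟨1, by rw [pow_one]; exact el_pow_eq_one hQ hQp⟩
    exact h1.pe.mul h2.pe

theorem finite_co1 : Finite Spor.Co1 := by
  have := H547.SelfCent.Conway.finite_co0
  exact Finite.of_surjective pr pr_surjective

theorem card_co1 : Nat.card Spor.Co1 = 4157776806543360000 := by
  have := finite_co1
  exact NotCT.Orders.co1 (K := Spor.Co1) ⟨MulEquiv.refl _⟩

theorem main {p : ℕ} {y : Spor.Co1} (hy : orderOf y = 23) (hp : PE p 2 y) : PW p 70 Spor.Co1 := by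
  have hfin := finite_co1
  have hs : IsSimpleGroup Spor.Co1 := Cfsg.Agent.S0399.result.1
  have hna : ¬ ∀ a b : Spor.Co1, a * b = b * a :=
    H253.TC.not_comm_of_card (K := Spor.Co1) card_co1 (by norm_num) (p := 7) (by norm_num) (by norm_num)
      (by norm_num)
  exact H773.Pw.pw_of_pe hna (m := 2) (D := 12) (k := 6) (c := 23) hp
    (H773.Pw.minDeg_of_prime card_co1 (by norm_num) (l := 23) (by norm_num) (by norm_num) (by norm_num) (by norm_num)
      (by norm_num) (by norm_num) (by norm_num))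
    (H547.SelfCent.Conway.co1 ⟨MulEquiv.refl _⟩ H393.Iso.na_co1_model hy).le (by norm_num) (by norm_num) (by norm_num)

theorem exists_three : ∃ y : Spor.Co1, orderOf y = 23 ∧ PE 3 2 y :=
  key (P := 653422245777126274154085859453354323) (Q := 7370222776013300222894172816907302)
    (by decide +kernel) (by decide +kernel) (by decide +kernel) (by decide +kernel) (by decide +kernel)
    (by decide +kernel)

theorem exists_seven : ∃ y : Spor.Co1, orderOf y = 23 ∧ PE 7 2 y :=
  key (P := 670677945301263576955646096721487910) (Q := 423359039449315996717624524242518113)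
    (by decide +kernel) (by decide +kernel) (by decide +kernel) (by decide +kernel) (by decide +kernel)
    (by decide +kernel)

end Co1P

theorem pw_co1_three {S : Type u} [Group S] (h : Spor.IsoCo1 S) : PW 3 70 S := by
  obtain ⟨e⟩ := h
  obtain ⟨y, h1, h2⟩ := Co1P.exists_three
  exact PW.congr (Co1P.main h1 h2) e.symm

theorem pw_co1_seven {S : Type u} [Group S] (h : Spor.IsoCo1 S) : PW 7 70 S := by
  obtain ⟨e⟩ := h
  obtain ⟨y, h1, h2⟩ := Co1P.exists_seven
  exact PW.congr (Co1P.main h1 h2) e.symm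

end Cfsg.Agent.H468.PW
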