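import Cfsg.Agent.H829.Pw.ATwelve

/-!
# An 11-cycle of `A₁₂` as a product of two `p`-elements, `p = 2, 3, 5, 7, 11`; lifts of `p`-elements (S2454, helper468)
-/

set_option autoImplicit false

namespace Cfsg.Agent.H468.PWM

open Cfsg Cfsg.Agent.H514.DP Cfsg.Agent.H829.Pw

def c11 : Equiv.Perm (Fin 12) :=
  mk12 ![1, 2, 3, 4, 5, 6, 7, 8, 9, 10, 0, 11] ![10, 0, 1, 2, 3, 4, 5, 6, 7, 8, 9, 11] (by decide)

def e2 : Equiv.Perm (Fin 12) :=
  mk12 ![4, 1, 0, 7, 6, 5, 2, 9, 8, 10, 3, 11] ![2, 1, 6, 10, 0, 5, 4, 3, 8, 7, 9, 11] (by decide)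

def e3 : Equiv.Perm (Fin 12) :=
  mk12 ![5, 2, 3, 1, 4, 6, 0, 11, 8, 7, 10, 9] ![6, 3, 1, 2, 4, 0, 5, 9, 8, 11, 10, 7] (by decide)

def e5 : Equiv.Perm (Fin 12) :=
  mk12 ![4, 6, 2, 8, 10, 9, 7, 5, 0, 1, 3, 11] ![8, 9, 2, 10, 0, 7, 1, 6, 3, 5, 4, 11] (by decide)

def e7 : Equiv.Perm (Fin 12) :=
  mk12 ![1, 6, 2, 9, 4, 5, 7, 3, 8, 10, 0, 11] ![10, 0, 2, 7, 4, 5, 1, 6, 8, 3, 9, 11] (by decide)

theorem c11_pow : c11 ^ 11 = 1 := by decide +kernel

theorem c11_ne : c11 ≠ 1 := by decide +kernel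

theorem c11_mem : c11 ∈ alternatingGroup (Fin 12) := mem_alt_of_odd_pow (by decide : Odd 11) c11_pow

/-- the 11-cycle -/
def E : alternatingGroup (Fin 12) := ⟨c11, c11_mem⟩

theorem orderOf_E : orderOf E = 11 := by
  have : Fact (Nat.Prime 11) := ⟨by norm_num⟩
  exact orderOf_eq_prime (Subtype.ext c11_pow) fun h => c11_ne (congrArg Subtype.val h)

/-- a decomposition in the symmetric group gives one in the alternating group -/
theorem pe_two_of {p : ℕ} {a : Equiv.Perm (Fin 12)} (ha : a ∈ alternatingGroup (Fin 12)) {k : ℕ} (hp : a ^ p ^ k = 1)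
    (hb : (a⁻¹ * c11) ^ p ^ k = 1) : PE p 2 E := by
  have h1 : IsPE p (⟨a, ha⟩ : alternatingGroup (Fin 12)) := ⟨k, Subtype.ext hp⟩
  have h2 : IsPE p ((⟨a, ha⟩ : alternatingGroup (Fin 12))⁻¹ * E) := ⟨k, Subtype.ext hb⟩
  have h3 := h1.pe.mul h2.pe
  rwa [mul_inv_cancel_left] at h3

theorem e2_mem : e2 ∈ alternatingGroup (Fin 12) := by
  rw [Equiv.Perm.mem_alternatingGroup]
  decide +kernel

theorem ee2 : PE 2 2 E := pe_two_of (k := 2) e2_mem (by decide +kernel) (by decide +kernel)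

theorem ee3 : PE 3 2 E :=
  have h : e3 ^ 3 = 1 := by decide +kernel
  pe_two_of (k := 1) (mem_alt_of_odd_pow (by decide) h) h (by decide +kernel)

theorem ee5 : PE 5 2 E :=
  have h : e5 ^ 5 = 1 := by decide +kernel
  pe_two_of (k := 1) (mem_alt_of_odd_pow (by decide) h) h (by decide +kernel)

theorem ee7 : PE 7 2 E :=
  have h : e7 ^ 7 = 1 := by decide +kernel
  pe_two_of (k := 1) (mem_alt_of_odd_pow (by decide) h) h (by decide +kernel)

/-- the five primes -/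
theorem pe_E {p : ℕ} (hp : p ∈ [2, 3, 5, 7, 11]) : PE p 2 E := by
  simp only [List.mem_cons, List.not_mem_nil, or_false] at hp
  rcases hp with rfl | rfl | rfl | rfl | rfl
  · exact ee2
  · exact ee3
  · exact ee5
  · exact ee7
  · exact (IsPE.of_prime orderOf_E).pe.mono (by norm_num)

section Lift

universe u v

variable {K : Type u} {B : Type v} [Group K] [Group B] [Finite K] {p : ℕ}

/-- `p`-elements lift to `p`-elements -/
theorem isPE_lift (hp : p.Prime) {q : K →* B} (hq : Function.Surjective q) {g : B} (hg : IsPE p g) :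
    ∃ x : K, IsPE p x ∧ q x = g := by
  obtain ⟨k, hk⟩ := hg
  obtain ⟨x, rfl⟩ := hq g
  obtain ⟨a, m, hm, hx⟩ : ∃ a m : ℕ, ¬ p ∣ m ∧ orderOf x = p ^ a * m := by
    obtain ⟨a, m, hm, h⟩ := Nat.exists_eq_pow_mul_and_not_dvd (orderOf_pos x).ne' p hp.ne_one
    exact ⟨a, m, hm, h⟩
  have hcop : Nat.Coprime (p ^ k) m := Nat.Coprime.pow_left k ((Nat.Prime.coprime_iff_not_dvd hp).2 hm)
  obtain ⟨u, hu1, hu2⟩ := Nat.chineseRemainder hcop 1 0
  refine ⟨x ^ u, ⟨a, ?_⟩, ?_⟩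
  · obtain ⟨c, hc⟩ := (Nat.modEq_zero_iff_dvd.1 hu2)
    rw [← pow_mul, hc, mul_right_comm, mul_comm m, ← hx, pow_mul, pow_orderOf_eq_one, one_pow]
  · rw [map_pow]
    have h2 : orderOf (q x) ∣ p ^ k := orderOf_dvd_of_pow_eq_one hk
    have h3 : u ≡ 1 [MOD orderOf (q x)] := hu1.of_dvd h2
    have h4 := pow_eq_pow_iff_modEq.2 h3
    rw [h4, pow_one]

theorem pe_lift (hp : p.Prime) {q : K →* B} (hq : Function.Surjective q) {m : ℕ} {g : B} (hg : PE p m g) :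
    ∃ x : K, PE p m x ∧ q x = g := by
  induction m generalizing g with
  | zero => exact ⟨1, rfl, by rw [map_one, pe_zero.1 hg]⟩
  | succ m ih =>
    obtain ⟨a, b, ha, hb, rfl⟩ := hg
    obtain ⟨x, hx, rfl⟩ := isPE_lift hp hq ha
    obtain ⟨y, hy, rfl⟩ := ih hb
    exact ⟨x * y, ⟨x, y, hx, hy, rfl⟩, map_mul q x y⟩

end Lift

end Cfsg.Agent.H468.PWM
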